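import Mathlib
import Cfsg.Agent.Isaacs.GlCyc

/-! Square roots of permutation characters of symplectic coprime modules. -/

set_option autoImplicit false

namespace Cfsg.Agent.RV

open Cfsg Cfsg.Agent.Char Subgroup

variable {p : ℕ} [hp : Fact p.Prime] {H M : Type*} [Group H] [AddCommGroup M] [Module (ZMod p) M]

/-- Fixed points of one element. -/
def fix (ρ : Representation (ZMod p) H M) (h : H) : Submodule (ZMod p) M :=
  LinearMap.eqLocus (ρ h) LinearMap.id

theorem mem_fix {ρ : Representation (ZMod p) H M} {h : H} {u : M} : u ∈ fix ρ h ↔ ρ h u = u :=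
  Iff.rfl

theorem fix_one (ρ : Representation (ZMod p) H M) : fix ρ 1 = ⊤ :=
  eq_top_iff.2 fun u _ => by simp [mem_fix]

theorem pow_fix {ρ : Representation (ZMod p) H M} {h : H} {u : M} (hu : ρ h u = u) (i : ℕ) :
    ρ (h ^ i) u = u := by
  induction i with
  | zero => simp
  | succ i ih => rw [pow_succ, map_mul, Module.End.mul_apply, hu, ih]

theorem exists_fix (ρ : Representation (ZMod p) H M) (B : M →ₗ[ZMod p] M →ₗ[ZMod p] ZMod p)
    (hB : ∀ g x y, B (ρ g x) (ρ g y) = B x y) {h : H} (hc : ¬ p ∣ orderOf h) {u : M}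
    (hu : ρ h u = u) {w : M} (hw : B u w ≠ 0) : ∃ w', ρ h w' = w' ∧ B u w' ≠ 0 := by
  refine ⟨∑ i ∈ Finset.range (orderOf h), ρ (h ^ i) w, ?_, ?_⟩
  · have h1 := Finset.sum_range_succ' (fun i => ρ (h ^ i) w) (orderOf h)
    rw [Finset.sum_range_succ, pow_orderOf_eq_one, pow_zero] at h1
    rw [map_sum, add_right_cancel h1]
    exact Finset.sum_congr rfl fun i _ => by rw [pow_succ', map_mul, Module.End.mul_apply]
  · rw [map_sum, Finset.sum_congr rfl (g := fun _ => B u w) (fun i _ => by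
      rw [← hB (h ^ i) u w, pow_fix hu]), Finset.sum_const, Finset.card_range, nsmul_eq_mul]
    exact mul_ne_zero (mt (ZMod.natCast_eq_zero_iff _ _).1 hc) hw

theorem van {K : Type*} [Group K] [Finite K] {χ : K → ℂ} (hχ : IsIrrCharacter K χ) {y g x : K}
    (hy : y ∈ center K) (hk : y ∉ charKer χ) (e : x * g * x⁻¹ = y * g) : χ g = 0 := by
  obtain ⟨c, -, hc⟩ := mem_charCenter.1 (center_le_charCenter hχ hy)
  by_contra h0
  have h1 := hc g
  rw [← e, isIrr_classFun hχ, eq_comm, mul_eq_right₀ h0] at h1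
  exact hk (mem_charKer.2 fun g => by rw [hc, h1, one_mul])

variable (p H M) in
/-- A module with an invariant bilinear form. -/
structure Dat where
  ρ : Representation (ZMod p) H M
  β : M →ₗ[ZMod p] M →ₗ[ZMod p] ZMod p
  inv : ∀ g x y, β (ρ g x) (ρ g y) = β x y

/-- The Heisenberg group extended by the operator group. -/
@[ext] structure Hs (D : Dat p H M) where
  u : M
  a : ZMod p
  h : H

namespace Hs
variable {D : Dat p H M}

instance : Mul (Hs D) :=
  ⟨fun x y => ⟨x.u + D.ρ x.h y.u, x.a + y.a + D.β x.u (D.ρ x.h y.u), x.h * y.h⟩⟩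
instance : One (Hs D) := ⟨⟨0, 0, 1⟩⟩
instance : Inv (Hs D) := ⟨fun x => ⟨-D.ρ x.h⁻¹ x.u, -x.a + D.β x.u x.u, x.h⁻¹⟩⟩

@[simp] theorem mul_u (x y : Hs D) : (x * y).u = x.u + D.ρ x.h y.u := rfl
@[simp] theorem mul_a (x y : Hs D) : (x * y).a = x.a + y.a + D.β x.u (D.ρ x.h y.u) := rfl
@[simp] theorem mul_h (x y : Hs D) : (x * y).h = x.h * y.h := rfl
@[simp] theorem one_u : (1 : Hs D).u = 0 := rfl
@[simp] theorem one_a : (1 : Hs D).a = 0 := rfl
@[simp] theorem one_h : (1 : Hs D).h = 1 := rfl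
@[simp] theorem inv_u (x : Hs D) : (x⁻¹).u = -D.ρ x.h⁻¹ x.u := rfl
@[simp] theorem inv_a (x : Hs D) : (x⁻¹).a = -x.a + D.β x.u x.u := rfl
@[simp] theorem inv_h (x : Hs D) : (x⁻¹).h = x.h⁻¹ := rfl

instance : Group (Hs D) := Group.ofLeftAxioms
  (fun x y z => by
    ext
    · simp [add_assoc]
    · simp only [mul_a, mul_u, mul_h, map_add, map_mul, Module.End.mul_apply, LinearMap.add_apply,
        D.inv]
      ring
    · simp [mul_assoc])
  (fun x => by ext <;> simp)
  (fun x => by ext <;> simp [D.inv])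

/-- Coordinates. -/
def equiv (D : Dat p H M) : Hs D ≃ M × ZMod p × H where
  toFun x := (x.u, x.a, x.h)
  invFun x := ⟨x.1, x.2.1, x.2.2⟩
  left_inv _ := rfl
  right_inv _ := rfl

instance [Finite H] [Finite M] : Finite (Hs D) := Finite.of_equiv _ (equiv D).symm

/-- Projection. -/
def pr (D : Dat p H M) : Hs D →* H := MonoidHom.mk' (fun x => x.h) fun _ _ => rfl

/-- Section. -/
def io (D : Dat p H M) : H →* Hs D := MonoidHom.mk' (fun h => ⟨0, 0, h⟩) fun _ _ => by ext <;> simp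

/-- Central elements. -/
def z (D : Dat p H M) (a : ZMod p) : Hs D := ⟨0, a, 1⟩

theorem z_mem (a : ZMod p) : z D a ∈ center (Hs D) := mem_center_iff.2 fun x => by
  ext <;> simp [z, add_comm]

theorem z_pow (a : ZMod p) (n : ℕ) : z D a ^ n = z D (n * a) := by
  induction n with
  | zero => ext <;> simp [z]
  | succ n ih => rw [pow_succ, ih]; ext <;> simp [z, add_mul]

theorem conj_eq {u w : M} (a : ZMod p) {h : H} (hw : D.ρ h w = w) :
    (⟨w, 0, 1⟩ : Hs D) * ⟨u, a, h⟩ * ⟨w, 0, 1⟩⁻¹ = z D (D.β w u - D.β u w) * ⟨u, a, h⟩ := by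
  ext
  · simp [z, hw]
  · simp [z, hw]; ring
  · simp [z]

end Hs

open Hs Isaacs in
theorem exists_xi [Finite H] [Finite M] (D : Dat p H M) (hc : ¬ p ∣ Nat.card H)
    (nd : ∀ u ≠ 0, ∃ w, D.β u w ≠ D.β w u) : ∃ ξ : H → ℤ,
    IsCharacter H (fun h => (ξ h : ℂ)) ∧ ∀ h, ξ h ^ 2 = Nat.card (fix D.ρ h) := by
  classical
  set E := (pr D).ker with hE
  have mE : ∀ x : Hs D, x ∈ E ↔ x.h = 1 := fun x => Iff.rfl
  have hi : E.index = Nat.card H := by
    rw [hE, index_ker, MonoidHom.range_eq_top.2 (fun h => ⟨io D h, rfl⟩), card_top]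
  have hcE : Nat.card E = Nat.card M * p := by
    have := E.card_mul_index
    rw [hi, Nat.card_congr (equiv D), Nat.card_prod, Nat.card_prod, Nat.card_zmod, ← mul_assoc] at this
    exact Nat.eq_of_mul_eq_mul_right Nat.card_pos this
  have hcop : (Nat.card E).Coprime (Nat.card H) := by
    rw [hcE, Module.natCard_eq_pow_finrank (K := ZMod p), Nat.card_zmod, ← pow_succ]
    exact Nat.Coprime.pow_left _ ((Nat.Prime.coprime_iff_not_dvd hp.out).2 hc)
  obtain ⟨θ, hθ, hk⟩ := exists_irr_not_mem_charKer (z := (⟨z D 1, rfl⟩ : E))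
    (fun e => one_ne_zero (congrArg (fun x : E => x.1.a) e))
  have hk' : ∀ a ≠ 0, (⟨z D a, rfl⟩ : E) ∉ charKer θ := fun a ha h => hk (by
    have := pow_mem h (a⁻¹).val
    convert this using 1
    ext1
    rw [coe_pow, z_pow, ZMod.natCast_zmod_val, inv_mul_cancel₀ ha])
  have hθ0 : ∀ x : E, x.1.u ≠ 0 → θ x = 0 := by
    rintro ⟨⟨u, a, h⟩, rfl : h = 1⟩ hu
    obtain ⟨w, hw⟩ := nd u hu
    refine van hθ (y := ⟨z D _, rfl⟩) (x := ⟨⟨w, 0, 1⟩, rfl⟩) (mem_center_iff.2 fun y =>
      Subtype.ext (mem_center_iff.1 (z_mem (D := D) _) y.1)) (hk' _ (sub_ne_zero.2 hw.symm))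
      (Subtype.ext (conj_eq a (by simp)))
  have hn : (⊤ : Subgroup (Hs D)) ≤ normalizer (E : Set (Hs D)) := le_normalizer_of_normal
  obtain ⟨χ, hχ, he⟩ := (irr_ez.2 hθ).exists_canon hn le_top (by rw [relIndex_top_right, hi]; exact hcop)
    (fun g _ x hx => by
      have hx' := (inferInstance : E.Normal).conj_mem x hx g
      rw [ez_mem _ hx, ez_mem _ hx']
      by_cases hu : x.u = 0
      · have : x = z D x.a := Hs.ext hu rfl hx
        congr 2
        rw [this, mem_center_iff.1 (z_mem _) g, mul_inv_cancel_right]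
      · rw [hθ0 ⟨x, hx⟩ hu, hθ0]
        have h1 : x.h = 1 := hx
        simpa [h1] using fun h => hu ((D.ρ.apply_bijective g.h).1 (h.trans (map_zero _).symm)))
  have hirr := irr_top.1 (hχ.irr le_top)
  have hch := isIrr_isChar hirr
  have hint : ∀ h, ∃ n : ℤ, χ (io D h) = n := fun h =>
    Galois.exists_int_of_forall_pow (isChar_isGenChar hch) fun k hk => by
      have := hχ.apply_pow hn le_top (by rw [relIndex_top_right, hi]; exact hcop) (one_mem _)
        (mem_top (io D h)) (Commute.one_left _)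
        (hcop.coprime_dvd_right ((orderOf_map_dvd _ _).trans (orderOf_dvd_natCard h))) hk
      rwa [one_mul, one_mul] at this
  choose ξ hξ using hint
  refine ⟨ξ, by simpa only [hξ] using isChar_comp (io D) hch, fun h => ?_⟩
  let C := E ⊓ centralizer {io D h}
  have cy : Cyc E C (io D h) := ⟨hn (mem_top _), hcop.coprime_dvd_right
    ((orderOf_map_dvd _ _).trans (orderOf_dvd_natCard h)), fun x => and_congr_right fun _ =>
      mem_centralizer_singleton_iff⟩
  have h1 := hχ.chr.inn_sh_self hn le_top hχ.res (mem_top (io D h))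
  rw [cy.inn_sh le_top (mem_top _) (hχ.chr.inv.mono le_top le_rfl) (hχ.chr.inv.mono le_top le_rfl)] at h1
  let e : fix D.ρ h × ZMod p ≃ C :=
    { toFun := fun x => ⟨⟨x.1, x.2, 1⟩, rfl, mem_centralizer_singleton_iff.2 (by
        ext <;> simp [io, mem_fix.1 x.1.2])⟩
      invFun := fun x => (⟨x.1.u, by
        have := congrArg Hs.u (mem_centralizer_singleton_iff.1 x.2.2)
        simpa [io, mem_fix] using this.symm⟩, x.1.a)
      left_inv := fun _ => rfl
      right_inv := fun x => Subtype.ext (Hs.ext rfl rfl (x.2.1 : x.1.h = 1).symm) }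
  letI : Fintype (fix D.ρ h) := Fintype.ofFinite _
  letI : Fintype C := Fintype.ofFinite _
  have h2 := congrArg Complex.re h1
  rw [inn_eq, classInner_self_re, ← Equiv.sum_comp e, Fintype.sum_prod_type,
    Finset.sum_eq_single 0, Finset.sum_congr rfl (g := fun _ => (ξ h : ℝ) ^ 2), ← Nat.card_congr e,
    Nat.card_prod, Nat.card_zmod, Finset.sum_const, Finset.card_univ, ZMod.card, nsmul_eq_mul,
    Complex.one_re, inv_mul_eq_one₀ (Nat.cast_ne_zero.2 (Nat.mul_pos Nat.card_pos hp.out.pos).ne'),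
    Nat.cast_mul, mul_comm] at h2
  · exact_mod_cast (mul_left_cancel₀ (Nat.cast_ne_zero.2 hp.out.ne_zero) h2).symm
  · intro a _
    have h3 := mul_of_mem_charCenter hch (center_le_charCenter hirr (z_mem a)) (io D h)
    have h4 := congrArg norm h3
    rw [norm_mul, norm_mul, (mem_charCenter_iff hch).1 (center_le_charCenter hirr (z_mem a)),
      mul_comm, hξ] at h4
    have h5 := mul_left_cancel₀ (norm_ne_zero_iff.2 (isIrr_one_ne_zero hirr)) h4
    show ‖χ (z D a * io D h)‖ ^ 2 = _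
    rw [h5, Complex.norm_intCast, sq_abs]
  · intro u _ hu
    refine Finset.sum_eq_zero fun a _ => ?_
    obtain ⟨w, hw⟩ := nd u fun e => hu (Subtype.ext e)
    obtain ⟨w, hw1, hw2⟩ := exists_fix D.ρ (D.β - D.β.flip) (fun g x y => by simp [D.inv])
      (h := h) (fun e => hc (e.trans (orderOf_dvd_natCard h))) u.2 (w := w)
      (by simpa [sub_eq_zero] using hw)
    have h3 : D.β w u - D.β u w ≠ 0 := fun e => hw2 (by
      simp [sub_eq_zero.1 e])
    have h4 : z D (D.β w u - D.β u w) ∉ charKer χ := fun e => hk' _ h3 (by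
      rw [mem_charKer_iff (isIrr_isChar hθ), ← ez_coe θ, ← ez_one θ]
      exact (he _ ((mE _).2 rfl)).symm.trans ((apply_eq_of_mem_charKer e).trans (he _ (one_mem _))))
    have h5 : (e (u, a) : Hs D) * io D h = ⟨u, a, h⟩ := by ext <;> simp [e, io]
    show ‖χ ((e (u, a) : Hs D) * io D h)‖ ^ 2 = 0
    rw [h5, van hirr (z_mem _) h4 (conj_eq a hw1)]
    simp
  · simp

end Cfsg.Agent.RV
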