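import Mathlib
import Cfsg.Agent.RV.Heis
import Cfsg.Agent.Block.GAV

/-! Class functions whose absolute square is the index of the fixed space. -/

set_option autoImplicit false

namespace Cfsg.Agent.RV

open Cfsg Cfsg.Agent.Char Cfsg.Agent.Block Finset
open scoped ComplexConjugate Classical

section
variable {H : Type*} [Group H] {f : H → ℂ}

variable (H) in
/-- Integral combinations of characters. -/
noncomputable def IC : Subalgebra (integralClosure ℤ ℂ) (H → ℂ) :=
  Algebra.adjoin _ {θ | IsCharacter H θ}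

theorem ic_char (h : IsCharacter H f) : f ∈ IC H := Algebra.subset_adjoin h

theorem ic_const {c : ℂ} (h : IsIntegral ℤ c) : (fun _ => c) ∈ IC H :=
  (IC H).algebraMap_mem ⟨c, h⟩

theorem ic_ind {P : (H → ℂ) → Prop} (h : f ∈ IC H) (h1 : ∀ θ, IsCharacter H θ → P θ) (h0 : P 0)
    (h2 : ∀ a b, P a → P b → P (a + b)) (h3 : ∀ (c : ℂ) a, IsIntegral ℤ c → P a → P (c • a)) : P f := by
  rw [IC, ← Subalgebra.mem_toSubmodule, Algebra.adjoin_eq_span] at h
  induction h using Submodule.span_induction with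
  | mem x hx =>
    refine h1 x ?_
    induction hx using Submonoid.closure_induction with
    | mem x hx => exact hx
    | one => exact isChar_one'
    | mul x y _ _ a b => exact isChar_mul a b
  | zero => exact h0
  | add x y _ _ a b => exact h2 x y a b
  | smul c x _ a => exact h3 c x c.2 a

theorem ic_cf (h : f ∈ IC H) : IsClassFunction H f :=
  ic_ind h (fun _ => isChar_classFun) classFun_zero (fun _ _ => classFun_add)
    fun c _ _ => classFun_smul c

theorem ic_mean [Fintype H] (h : f ∈ IC H) : IsIntegral ℤ (classInner f fun _ => 1) :=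
  ic_ind (P := fun f => IsIntegral ℤ (classInner f fun _ => 1)) h (fun θ hθ => by
    obtain ⟨n, hn⟩ := classInner_isChar_nat hθ isChar_one
    rw [hn]; exact isIntegral_natCast' n) (by rw [classInner_zero_left]; exact isIntegral_zero)
    (fun a b ha hb => by rw [classInner_add_left]; exact ha.add hb)
    fun c a hc ha => by rw [classInner_smul_left]; exact hc.mul ha

theorem ic_perm {X : Type*} [MulAction H X] [Fintype X] (f : X → ℂ) (hf : ∀ (g : H) x, f (g • x) = f x)
    (hi : ∀ x, IsIntegral ℤ (f x)) : (fun h : H => ∑ x with h • x = x, f x) ∈ IC H := by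
  let S : ℂ → SubMulAction H X := fun c => ⟨{x | f x = c}, fun g x hx => (hf g x).trans hx⟩
  have : (fun h : H => ∑ x with h • x = x, f x) = ∑ c ∈ univ.image f,
      (fun _ => c) * fun h : H => (Nat.card (MulAction.fixedBy (S c) h) : ℂ) := by
    funext h
    rw [Finset.sum_apply, ← sum_fiberwise_of_maps_to (t := univ.image f) (g := f)
      fun x _ => mem_image_of_mem f (mem_univ x)]
    refine sum_congr rfl fun c _ => ?_
    rw [sum_congr rfl (g := fun _ => c) fun x hx => (mem_filter.1 hx).2, sum_const, nsmul_eq_mul,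
      mul_comm, Pi.mul_apply, filter_filter, ← Fintype.card_subtype, ← Nat.card_eq_fintype_card]
    congr 2
    exact Nat.card_congr
      { toFun := fun x => ⟨⟨x.1, x.2.2⟩, Subtype.ext x.2.1⟩
        invFun := fun x => ⟨x.1.1, congrArg Subtype.val x.2, x.1.2⟩
        left_inv := fun _ => rfl
        right_inv := fun _ => rfl }
  rw [this]
  refine Subalgebra.sum_mem _ fun c hc => mul_mem (ic_const ?_) (ic_char (isChar_perm _))
  obtain ⟨x, -, rfl⟩ := mem_image.1 hc
  exact hi x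

theorem ic_inv {p m : ℕ} (hp : p ≠ 0) (h : f ∈ IC H) (hf : ∀ g, ∃ j < m, f g = p ^ j) :
    ∃ N : ℕ, (fun g => (p : ℂ) ^ N / f g) ∈ IC H := by
  have key : ∀ m : ℕ, ∃ N : ℕ, ∃ r ∈ IC H, ∀ g, ∏ j ∈ range m, ((p : ℂ) ^ j - f g) =
      p ^ N - f g * r g := fun m => by
    induction m with
    | zero => exact ⟨0, 0, zero_mem _, fun g => by simp⟩
    | succ m ih =>
      obtain ⟨N, r, hr, e⟩ := ih
      refine ⟨N + m, (fun _ => (p : ℂ) ^ N) + r * (fun _ => (p : ℂ) ^ m) - f * r,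
        sub_mem (add_mem (ic_const ((isIntegral_natCast' p).pow N))
          (mul_mem hr (ic_const ((isIntegral_natCast' p).pow m)))) (mul_mem h hr), fun g => ?_⟩
      rw [prod_range_succ, e]
      simp only [Pi.sub_apply, Pi.add_apply, Pi.mul_apply]
      ring
  obtain ⟨N, r, hr, e⟩ := key m
  refine ⟨N, ?_⟩
  convert hr using 1
  funext g
  obtain ⟨j, hj, e'⟩ := hf g
  have := e g
  rw [prod_eq_zero (mem_range.2 hj) (by rw [e', sub_self]), eq_comm, sub_eq_zero] at this
  rw [this, mul_div_cancel_left₀ _ (by rw [e']; exact pow_ne_zero _ (Nat.cast_ne_zero.2 hp))]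

end

variable {p : ℕ} [hp : Fact p.Prime] {H W : Type*} [Group H] [AddCommGroup W] [Module (ZMod p) W]

/-- The properties needed for the class number bound. -/
structure Good (M : Ideal AlgInt) (γ : ZMod p → H → ℂ) (c : H → ℕ) (n : ℕ) : Prop where
  cf : ∀ t ≠ 0, IsClassFunction H (γ t)
  int : ∀ t ≠ 0, ∀ h, IsIntegral ℤ (γ t h)
  one : ∀ t ≠ 0, γ t 1 = 1
  lt : ∀ t ≠ 0, ∀ h, c h ≠ n → val M (γ t h) < 1
  nm : ∀ t ≠ 0, ∀ h, ‖γ t h‖ ^ 2 * c h = n
  ic : ∀ t ≠ 0, ∃ N : ℕ, (fun h => (p : ℂ) ^ N * γ t h) ∈ IC H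
  gal : ∀ (φ : ℂ →+* ℂ) (k : ℕ), k.Coprime (Nat.card H) → (∀ z : ℂ, z ^ p = 1 → φ z = z ^ k) →
    ∀ t h, φ (γ t h) = γ (k * t) (h ^ k)

variable {M : Ideal AlgInt}

theorem Good.mul {γ δ : ZMod p → H → ℂ} {c d : H → ℕ} {n m : ℕ} (a : Good M γ c n)
    (b : Good M δ d m) : Good M (fun t h => γ t h * δ t h) (fun h => c h * d h) (n * m) where
  cf t ht := classFun_mul (a.cf t ht) (b.cf t ht)
  int t ht h := (a.int t ht h).mul (b.int t ht h)
  one t ht := by rw [a.one t ht, b.one t ht, mul_one]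
  lt t ht h e := by
    by_cases h1 : c h = n
    · exact val_mul_lt_one_right (mem_V_of_isIntegral M (a.int t ht h))
        (b.lt t ht h fun h2 => e (by rw [h1, h2]))
    · exact val_mul_lt_one_left (a.lt t ht h h1) (mem_V_of_isIntegral M (b.int t ht h))
  nm t ht h := by
    rw [Nat.cast_mul, Nat.cast_mul, ← a.nm t ht h, ← b.nm t ht h, norm_mul]; ring
  ic t ht := by
    obtain ⟨N, h1⟩ := a.ic t ht
    obtain ⟨L, h2⟩ := b.ic t ht
    refine ⟨N + L, ?_⟩
    convert mul_mem h1 h2 using 1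
    funext h
    simp only [Pi.mul_apply]; ring
  gal φ k h1 h2 t h := by rw [map_mul, a.gal φ k h1 h2, b.gal φ k h1 h2]

theorem good_one (n : ℕ) : Good M (fun (_ : ZMod p) (_ : H) => 1) (fun _ => n) n where
  cf _ _ := classFun_const 1
  int _ _ _ := isIntegral_one
  one _ _ := rfl
  lt _ _ _ e := absurd rfl e
  nm _ _ _ := by simp
  ic _ _ := ⟨0, by simpa using ic_const isIntegral_one⟩
  gal φ _ _ _ _ _ := map_one φ

theorem card_sub [Finite W] (U : Submodule (ZMod p) W) :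
    ∃ j < Module.finrank (ZMod p) W + 1, Nat.card U = p ^ j :=
  ⟨_, Nat.lt_succ_of_le U.finrank_le, by
    rw [Module.natCard_eq_pow_finrank (K := ZMod p), Nat.card_zmod]⟩

theorem sum_fix_ic [Fintype W] (ρ : Representation (ZMod p) H W) (f : W → ℂ)
    (hf : ∀ (g : H) x, f (ρ g x) = f x) (hi : ∀ x, IsIntegral ℤ (f x)) :
    (fun h : H => ∑ x : fix ρ h, f x) ∈ IC H := by
  letI : MulAction H W := MulAction.compHom W ρ
  convert ic_perm (H := H) f hf hi using 2 with h
  exact (sum_subtype _ (fun x => by simp [mem_fix]; rfl) f).symm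

theorem inv_fix_ic [Finite W] (ρ : Representation (ZMod p) H W) :
    ∃ N : ℕ, (fun h => (p : ℂ) ^ N / (Nat.card (fix ρ h) : ℂ)) ∈ IC H := by
  letI := Fintype.ofFinite W
  refine ic_inv (m := Module.finrank (ZMod p) W + 1) hp.out.ne_zero ?_ fun g => ?_
  · simpa using sum_fix_ic ρ (fun _ => 1) (fun _ _ => rfl) fun _ => isIntegral_one
  · obtain ⟨j, hj, e⟩ := card_sub (fix ρ g)
    exact ⟨j, hj, by rw [e]; simp⟩

theorem good_alt [Finite H] [Finite W] (hM : IsPModular p M) (D : Dat p H W) (hc : ¬ p ∣ Nat.card H)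
    (nd : ∀ u ≠ 0, ∃ w, D.β u w ≠ D.β w u) : ∃ γ : ZMod p → H → ℂ,
    Good M γ (fun h => Nat.card (fix D.ρ h)) (Nat.card W) := by
  obtain ⟨ξ, hξ, h2⟩ := exists_xi D hc nd
  have h1 : ξ 1 ^ 2 = Nat.card W := by rw [h2, fix_one, Nat.card_congr Submodule.topEquiv.toEquiv]
  have h0 : ∀ h, (ξ h : ℂ) ≠ 0 := fun h e => by
    have := h2 h
    rw [Int.cast_eq_zero.1 e, eq_comm] at this
    exact Nat.card_pos.ne' (by exact_mod_cast this)
  have hd : ∀ h, ∃ m : ℤ, ξ 1 = ξ h * m := fun h => (Int.pow_dvd_pow_iff two_ne_zero).1 (by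
    rw [h1, h2]; exact_mod_cast AddSubgroup.card_addSubgroup_dvd_card (fix D.ρ h).toAddSubgroup)
  choose m hm using hd
  have e : ∀ h, (ξ 1 : ℂ) / ξ h = m h := fun h => by
    rw [hm h, Int.cast_mul, mul_div_cancel_left₀ _ (h0 h)]
  have e2 : ∀ h, m h ^ 2 * Nat.card (fix D.ρ h) = Nat.card W := fun h => by
    rw [← h1, ← h2, hm h]; ring
  refine ⟨fun _ h => ξ 1 / ξ h, fun _ _ => classFun_map (isChar_classFun hξ) fun z => ξ 1 / z,
    fun _ _ h => e h ▸ isIntegral_intCast' _, fun _ _ => div_self (h0 1), fun _ _ h hne => ?_,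
    fun _ _ h => ?_, fun _ _ => ?_, fun φ k hk _ _ h => ?_⟩
  · rw [e, val_intCast_lt_one_iff hM]
    by_contra hn
    have h3 : IsCoprime (m h ^ 2) (Nat.card W : ℤ) := by
      rw [Module.natCard_eq_pow_finrank (K := ZMod p), Nat.card_zmod, Nat.cast_pow]
      exact ((Nat.prime_iff_prime_int.1 hp.out).irreducible.coprime_iff_not_dvd.2 hn).symm.pow
    have h4 := h3.isUnit_of_dvd (Dvd.intro _ (e2 h))
    have h5 := e2 h
    rw [(Int.isUnit_iff.1 h4).resolve_right (by nlinarith [sq_nonneg (m h)]), one_mul] at h5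
    exact hne (by exact_mod_cast h5)
  · rw [e, Complex.norm_intCast, sq_abs]; exact_mod_cast e2 h
  · obtain ⟨N, hN⟩ := inv_fix_ic D.ρ
    refine ⟨N, ?_⟩
    convert mul_mem (mul_mem hN (ic_const (isIntegral_intCast' (ξ 1)))) (ic_char hξ) using 1
    funext h
    have : (Nat.card (fix D.ρ h) : ℂ) = ξ h ^ 2 := by exact_mod_cast (h2 h).symm
    simp only [Pi.mul_apply]
    rw [this]
    field_simp [h0 h]
  · rw [map_div₀, map_intCast, map_intCast, Galois.apply_pow_eq_of_rat (isChar_isGenChar hξ)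
      (q := ξ h) (by simp) (hk.coprime_dvd_right (orderOf_dvd_natCard h))]

/-- The standard additive character. -/
noncomputable abbrev ψ (p : ℕ) [Fact p.Prime] : AddChar (ZMod p) ℂ := ZMod.stdAddChar

theorem ψ_pow (x : ZMod p) : ψ p x ^ p = 1 := by
  rw [← AddChar.map_nsmul_eq_pow, nsmul_eq_mul, ZMod.natCast_self, zero_mul, AddChar.map_zero_eq_one]

theorem ψ_int (x : ZMod p) : IsIntegral ℤ (ψ p x) := isIntegral_of_pow_eq_one hp.out.ne_zero (ψ_pow x)

theorem gauss_norm [Fintype W] (β : W →ₗ[ZMod p] W →ₗ[ZMod p] ZMod p)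
    (nd : ∀ u ≠ 0, ∃ w, β u w + β w u ≠ 0) {t : ZMod p} (ht : t ≠ 0) :
    (∑ u, ψ p (t * β u u)) * conj (∑ u, ψ p (t * β u u)) = Nat.card W := by
  rw [map_sum, mul_comm, sum_mul]
  have e : ∀ w : W, conj (ψ p (t * β w w)) * ∑ u, ψ p (t * β u u) =
      ∑ d, ψ p (t * β d d) * ψ p (t * (β d w + β w d)) := fun w => by
    rw [← Equiv.sum_comp (Equiv.addRight w), mul_sum]
    refine sum_congr rfl fun d _ => ?_
    rw [← AddChar.map_neg_eq_conj, ← AddChar.map_add_eq_mul, ← AddChar.map_add_eq_mul]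
    congr 1
    simp only [Equiv.coe_addRight, map_add, LinearMap.add_apply]
    ring
  rw [sum_congr rfl fun w _ => e w, sum_comm, sum_eq_single 0]
  · simp
  · intro d _ hd
    obtain ⟨w, hw⟩ := nd d hd
    rw [← mul_sum]
    refine mul_eq_zero_of_right _ ((AddChar.sum_eq_zero_iff_ne_zero (ψ := (ψ p).compAddMonoidHom
      (t • (β d + β.flip d)).toAddMonoidHom)).2 (AddChar.ne_zero_iff.2 ⟨w, fun h => ?_⟩))
    exact mul_ne_zero ht hw (ZMod.injective_stdAddChar (h.trans (AddChar.map_zero_eq_one _).symm))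
  · simp

theorem good_sym [Finite H] [Finite W] (hM : IsPModular p M) (D : Dat p H W) (hc : ¬ p ∣ Nat.card H)
    (nd : ∀ u ≠ 0, ∃ w, D.β u w + D.β w u ≠ 0) : ∃ γ : ZMod p → H → ℂ,
    Good M γ (fun h => Nat.card (fix D.ρ h)) (Nat.card W) := by
  letI := Fintype.ofFinite W
  have ho : ∀ h : H, ¬ p ∣ orderOf h := fun h e => hc (e.trans (orderOf_dvd_natCard h))
  let θ : ZMod p → H → ℂ := fun t h => ∑ x : fix D.ρ h, ψ p (t * D.β x x)
  have hθ : ∀ t, θ t ∈ IC H := fun t =>
    sum_fix_ic D.ρ (fun x => ψ p (t * D.β x x)) (fun g x => by rw [D.inv]) fun x => ψ_int _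
  have hn : ∀ t ≠ 0, ∀ h, θ t h * conj (θ t h) = Nat.card (fix D.ρ h) := fun t ht h =>
    gauss_norm (D.β.domRestrict₁₂ (fix D.ρ h) (fix D.ρ h)) (fun u hu => by
      obtain ⟨w, hw⟩ := nd u fun e => hu (Subtype.ext e)
      obtain ⟨w, h1, h2⟩ := exists_fix D.ρ (D.β + D.β.flip) (fun g x y => by simp [D.inv]) (ho h) u.2
        (w := w) hw
      exact ⟨⟨w, h1⟩, h2⟩) ht
  have h0 : ∀ t ≠ 0, ∀ h, θ t h ≠ 0 := fun t ht h e => by
    have := hn t ht h
    rw [e, zero_mul, eq_comm, Nat.cast_eq_zero] at this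
    exact Nat.card_pos.ne' this
  have hn' : ∀ t ≠ 0, ∀ h, ‖θ t h‖ ^ 2 = Nat.card (fix D.ρ h) := fun t ht h => by
    have := hn t ht h
    rw [Complex.mul_conj'] at this
    exact_mod_cast this
  have hcj : ∀ t h, conj (θ t h) = θ (-t) h := fun t h => by
    simp only [θ, map_sum, ← AddChar.map_neg_eq_conj, neg_mul]
  have hi : ∀ t h, IsIntegral ℤ (θ t h) := fun t h => IsIntegral.sum _ fun _ _ => ψ_int _
  have cp : ∀ h, IsCompl (fix D.ρ h) (LinearMap.range (D.ρ h - 1)) := fun h => by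
    have e : fix D.ρ h = LinearMap.ker (D.ρ h - 1) := by
      ext x; simp [mem_fix, sub_eq_zero]
    refine (Submodule.isCompl_iff_disjoint _ _ (by
      rw [e, add_comm, LinearMap.finrank_range_add_finrank_ker])).2
      (Submodule.disjoint_def.2 fun x hx ⟨y, hy⟩ => ?_)
    by_contra hx0
    obtain ⟨w, hw⟩ := nd x hx0
    obtain ⟨w, h1, h2⟩ := exists_fix D.ρ (D.β + D.β.flip) (fun g x y => by simp [D.inv]) (ho h) hx
      (w := w) hw
    have a := D.inv h y w
    have b := D.inv h w y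
    rw [h1] at a b
    exact h2 (by simp [← hy, a, b])
  have e : ∀ t ≠ 0, ∀ h, θ t 1 / θ t h =
      ∑ y : LinearMap.range (D.ρ h - 1), ψ p (t * D.β y y) := fun t ht h => by
    rw [div_eq_iff (h0 t ht h), mul_comm, sum_mul_sum, ← Fintype.sum_prod_type']
    have : θ t 1 = ∑ x : W, ψ p (t * D.β x x) :=
      (sum_subtype univ (fun x => by simp [fix_one]) fun x => ψ p (t * D.β x x)).symm
    rw [this, ← Equiv.sum_comp (Submodule.prodEquivOfIsCompl _ _ (cp h)).toEquiv]
    refine sum_congr rfl ?_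
    rintro ⟨⟨x, hx⟩, _, y, rfl⟩ -
    have a := D.inv h y x
    have b := D.inv h x y
    rw [mem_fix.1 hx] at a b
    rw [← AddChar.map_add_eq_mul]
    congr 1
    simp only [LinearEquiv.coe_toEquiv, Submodule.coe_prodEquivOfIsCompl', map_add,
      LinearMap.add_apply, LinearMap.sub_apply, Module.End.one_apply, map_sub, a, b]
    ring
  refine ⟨fun t h => θ t 1 / θ t h, fun t _ => classFun_map (ic_cf (hθ t)) fun z => θ t 1 / z,
    fun t ht h => e t ht h ▸ IsIntegral.sum _ fun _ _ => ψ_int _, fun t ht => div_self (h0 t ht 1),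
    fun t ht h hne => ?_, fun t ht h => ?_, fun t ht => ?_, fun φ k hk hφ t h => ?_⟩
  · rw [e t ht, ← sub_add_cancel (∑ y : LinearMap.range (D.ρ h - 1), ψ p (t * D.β y y))
      (∑ _y : LinearMap.range (D.ρ h - 1), (1 : ℂ)), ← sum_sub_distrib]
    refine val_add_lt_one (val_sum_lt_one _ fun y _ => val_sub_one_lt_one_of_pow_eq_one hM (k := 1)
      (by rw [pow_one, ψ_pow])) ?_
    rw [sum_const, card_univ, nsmul_eq_mul, mul_one, val_natCast_lt_one_iff hM,
      ← Nat.card_eq_fintype_card]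
    obtain ⟨j, -, hj⟩ := card_sub (LinearMap.range (D.ρ h - 1))
    refine hj ▸ dvd_pow_self p fun e => hne ?_
    rw [← Nat.card_congr (Submodule.prodEquivOfIsCompl _ _ (cp h)).toEquiv, Nat.card_prod, hj, e,
      pow_zero, mul_one]
  · rw [norm_div, div_pow, hn' t ht, hn' t ht, div_mul_cancel₀ _ (Nat.cast_ne_zero.2 Nat.card_pos.ne'),
      fix_one, Nat.card_congr Submodule.topEquiv.toEquiv]
  · obtain ⟨N, hN⟩ := inv_fix_ic D.ρ
    refine ⟨N, ?_⟩
    convert mul_mem (mul_mem hN (ic_const (hi t 1))) (hθ (-t)) using 1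
    funext h
    simp only [Pi.mul_apply]
    have := h0 _ (neg_ne_zero.2 ht) h
    rw [← hn t ht, hcj]
    field_simp [h0 t ht h]
  · have e1 : fix D.ρ (h ^ k) = fix D.ρ h := by
      refine le_antisymm (fun x hx => ?_) fun x hx => pow_fix hx k
      obtain ⟨m, hm⟩ := exists_pow_eq_self_of_coprime (hk.coprime_dvd_right (orderOf_dvd_natCard h))
      rw [mem_fix, ← hm]; exact pow_fix hx m
    have e2 : ∀ g, φ (θ t g) = θ (k * t) g := fun g => by
      simp only [θ, map_sum, hφ _ (ψ_pow _), ← AddChar.map_nsmul_eq_pow, nsmul_eq_mul, mul_assoc]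
    have e3 : θ (k * t) (h ^ k) = θ (k * t) h := by
      simp only [θ]
      exact (Equiv.sum_comp (LinearEquiv.ofEq _ _ e1).toEquiv
        fun x : fix D.ρ h => ψ p (k * t * D.β x x))
    rw [map_div₀, e2, e2, e3]

end Cfsg.Agent.RV
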